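import Cfsg.Agent.H33.QRu.Pair
import Cfsg.Agent.KFacts.Ru.CentEng

/-!
# The classes of the Rudvalis group which split in the double cover (helper33)

* `ratio` : the ratio of the eigenvalues of a lift of `x` on two fixed lines;
* `not_fus_of` : the check for `¬ Fus`: an element `c` commuting with `x` with `c~ x~ = - x~ c~` would map the fixed line
  `a` to a fixed line with the opposite eigenvalue.
-/

set_option autoImplicit false
set_option maxRecDepth 100000
set_option exponentiation.threshold 5000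

namespace Cfsg.Agent.H33.QRu

open Cfsg.Spor Cfsg.Agent.RuLat Cfsg.Agent.SporadicB Cfsg.Agent.RuD.Letters Cfsg.Agent.Lib Cfsg.Agent.Lib.BitNet
open Cfsg.Agent.SporRec.TCUpperCert Cfsg.Agent.H51.RuCover Cfsg.Agent.KFacts.Ru.CentEng
open scoped commutatorElement

/-- the ratio of the eigenvalues on two fixed lines -/
theorem ratio {x : fourRu} {a b m m' : Fin 4060} {ea eb r : ℕ}
    (ha : ((x.1 (ve a) : ruLattice) : RuVec) = gI ^ ea • vec a) (hb : ((x.1 (ve b) : ruLattice) : RuVec) = gI ^ eb • vec b)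
    (hm : Main.hyp.hom x m = m')
    (hH : herm (vec a) (vec m) * herm (vec m) (vec b) = gI ^ r * (herm (vec a) (vec m') * herm (vec m') (vec b)))
    (hne : herm (vec a) (vec m) * herm (vec m) (vec b) ≠ 0) : gI ^ ea = gI ^ r * gI ^ eb := by
  obtain ⟨em, hem, hv⟩ := ap_ve x m
  rw [hm] at hv
  have k1 : herm (vec a) (vec m) = herm (gI ^ ea • vec a) (gI ^ em • vec m') := by
    rw [← ha, ← hv, ← coe_ve a, ← coe_ve m]
    exact (four_herm x.2 _ _).symm
  have k2 : herm (vec m) (vec b) = herm (gI ^ em • vec m') (gI ^ eb • vec b) := by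
    rw [← hb, ← hv, ← coe_ve b, ← coe_ve m]
    exact (four_herm x.2 _ _).symm
  rw [herm_smul_vec] at k1 k2
  have um := gI_pow_star em
  have ub := gI_pow_star eb
  have k3 : herm (vec a) (vec m) * herm (vec m) (vec b) =
      gI ^ ea * star (gI ^ eb) * (herm (vec a) (vec m') * herm (vec m') (vec b)) := by
    rw [k1, k2]
    linear_combination (gI ^ ea * star (gI ^ eb) * herm (vec a) (vec m') * herm (vec m') (vec b)) * um
  have hne' : herm (vec a) (vec m') * herm (vec m') (vec b) ≠ 0 := by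
    intro h0
    rw [h0, mul_zero] at k3
    exact hne k3
  rw [hH] at k3
  have k4 : gI ^ r = gI ^ ea * star (gI ^ eb) := mul_right_cancel₀ hne' k3
  rw [k4]
  linear_combination (- gI ^ ea) * ub

/-- the mask of a list of points -/
noncomputable def bits : List ℕ → ℕ := List.rec 0 fun b _ ih => Nat.lor (Nat.pow 2 b) ih

theorem testBit_bits (i : ℕ) : ∀ l : List ℕ, (bits l).testBit i = true ↔ i ∈ l
  | [] => by
    change (0 : ℕ).testBit i = true ↔ _
    simp
  | b :: l => by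
    change (2 ^ b ||| bits l).testBit i = true ↔ _
    rw [Nat.testBit_or, Bool.or_eq_true, testBit_bits i l, Nat.testBit_two_pow, List.mem_cons]
    simp [eq_comm]

/-- the check for one line `b` of the list: ratio of the eigenvalues on `a` and `b` different from `-1` -/
noncomputable def chkR (w : List ℕ) (a : ℕ) (t : ℕ × ℕ × ℕ) : Bool :=
  Nat.blt t.1 4060 && (Nat.blt t.2.1 4060 && (Nat.blt t.2.2 4 && (!(Nat.beq t.2.2 2) &&
    BitNetSimple.force (evalK w t.2.1) fun m' => Nat.blt m' 4060 &&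
      decide (((⟨hre a t.2.1, him a t.2.1⟩ : GaussianInt) * ⟨hre t.2.1 t.1, him t.2.1 t.1⟩ =
        gI ^ t.2.2 * (⟨hre a m', him a m'⟩ * ⟨hre m' t.1, him m' t.1⟩)) ∧
      ((⟨hre a t.2.1, him a t.2.1⟩ : GaussianInt) * ⟨hre t.2.1 t.1, him t.2.1 t.1⟩ ≠ 0)))))

/-- the mask: the fixed lines orthogonal to exactly `k` fixed lines -/
noncomputable def maskA (w : List ℕ) (k : ℕ) : ℕ :=
  BitNetSimple.force (fixMask w) fun F => Nat.land F (cntSet 12 4060 RuData.row F k)

theorem inv_maskA {w : List ℕ} {x : RuOrder.H} (h : x * wprod ml w = wprod ml w * x) (k : ℕ) :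
    Inv (x : Equiv.Perm (Fin 4060)) (maskA w k) := by
  rw [maskA, BitNetSimple.force_eq]
  exact inv_land (inv_fixMask h) (Inv.cntSet (by norm_num) x.2 (inv_fixMask h) k)

theorem fix_of_maskA {w : List ℕ} {k : ℕ} {i : Fin 4060} (h : (maskA w k).testBit i = true) :
    ((wprod ml w : RuOrder.H) : Equiv.Perm (Fin 4060)) i = i := by
  rw [maskA, BitNetSimple.force_eq] at h
  change (fixMask w &&& _).testBit (i : ℕ) = true at h
  rw [Nat.testBit_and, Bool.and_eq_true] at h
  exact (testBit_fixMask w i).1 h.1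

/-- **the check of `¬ Fus`** -/
theorem not_fus_of {w : List ℕ} (k a : ℕ) (l : List (ℕ × ℕ × ℕ))
    (h1 : Nat.beq (maskA w k) (bits (l.map fun t => t.1)) = true) (h2 : (Nat.blt a 4060 && Nat.testBit (maskA w k) a) = true)
    (h3 : (l.all fun t => chkR w a t) = true) : ¬ Fus (Wd w) := by
  rintro ⟨f, c, hf, hc⟩
  rw [Bool.and_eq_true] at h2
  have ha4 : a < 4060 := by
    have := h2.1
    rw [Nat.blt_eq] at this
    exact this
  obtain ⟨a, rfl⟩ : ∃ a' : Fin 4060, (a' : ℕ) = a := ⟨⟨a, ha4⟩, rfl⟩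
  have hW : wprod ml w = (Main.equiv (qm f) : RuOrder.H) := by rw [hf, Wd, MulEquiv.apply_symm_apply]
  -- `c` commutes with `f` modulo the centre
  have hcf : qm c * qm f = qm f * qm c := by
    have h4 := congrArg qm hc
    rw [map_mul, map_mul, map_mul, qm_nu, mul_one, map_inv] at h4
    calc qm c * qm f = qm c * qm f * (qm c)⁻¹ * qm c := by group
      _ = qm f * qm c := by rw [h4]
  have hcw : (Main.equiv (qm c) : RuOrder.H) * wprod ml w = wprod ml w * Main.equiv (qm c) := by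
    rw [hW, ← map_mul Main.equiv, ← map_mul Main.equiv, hcf]
  -- the image of the line `a`
  obtain ⟨b, hb⟩ : ∃ b, Main.hyp.hom c a = b := ⟨_, rfl⟩
  have hbA : (maskA w k).testBit b = true := by
    have h4 := inv_maskA hcw k a
    rw [equiv_qm, hb, h2.2] at h4
    exact h4
  have hfa : Main.hyp.hom f a = a := by rw [← equiv_qm, ← hW]; exact fix_of_maskA h2.2
  have hfb : Main.hyp.hom f b = b := by rw [← equiv_qm, ← hW]; exact fix_of_maskA hbA
  have hmem : (b : ℕ) ∈ l.map fun t => t.1 := by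
    rw [← testBit_bits, ← Nat.eq_of_beq_eq_true h1]
    exact hbA
  obtain ⟨t, ht, htb⟩ := List.mem_map.1 hmem
  obtain ⟨ea, hea, hva⟩ := ap_ve f a
  obtain ⟨eb, heb, hvb⟩ := ap_ve f b
  rw [hfa] at hva
  rw [hfb] at hvb
  -- the ratio of the eigenvalues
  have hr : gI ^ t.2.2 ≠ -1 ∧ gI ^ ea = gI ^ t.2.2 * gI ^ eb := by
    have h4 := List.all_eq_true.1 h3 t ht
    rw [chkR, Bool.and_eq_true, Bool.and_eq_true, Bool.and_eq_true, Bool.and_eq_true, BitNetSimple.force_eq,
      Bool.and_eq_true] at h4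
    obtain ⟨h5, h6, h7, h8, h9, h10⟩ := h4
    have hm4 : t.2.1 < 4060 := by
      rw [Nat.blt_eq] at h6
      exact h6
    have hr4 : t.2.2 < 4 := by
      rw [Nat.blt_eq] at h7
      exact h7
    have hr2 : t.2.2 ≠ 2 := by
      intro h11
      rw [h11] at h8
      exact absurd h8 (by decide)
    obtain ⟨m, hm⟩ : ∃ m : Fin 4060, (m : ℕ) = t.2.1 := ⟨⟨t.2.1, hm4⟩, rfl⟩
    have e1 : (Main.hyp.hom f m : ℕ) = evalK w t.2.1 := by
      rw [← equiv_qm, ← hW, evalK_eq, hm]
    obtain ⟨h11, h12⟩ := of_decide_eq_true h10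
    refine ⟨?_, ratio (m := m) (m' := Main.hyp.hom f m) hva hvb rfl ?_ ?_⟩
    · intro h13
      refine hr2 (gI_pow_inj hr4 (by norm_num) ?_)
      rw [h13, pow_two, gI_mul_self]
    · rw [herm_vec, herm_vec, herm_vec, herm_vec, e1, hm, ← htb]
      exact h11
    · rw [herm_vec, herm_vec, hm, ← htb]
      exact h12
  -- the image of the eigenvector
  obtain ⟨e, he, hv⟩ := ap_ve c a
  rw [hb] at hv
  have hfc : f * c = nu * (c * f) := by
    have h4 : c * f = f * nu * c := by rw [← hc]; group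
    have h5 : nu * nu = 1 := by
      have h6 := pow_orderOf_eq_one nu
      rwa [orderOf_comm, pow_two] at h6
    calc f * c = (nu * nu) * (f * c) := by rw [h5, one_mul]
      _ = nu * (f * nu * c) := by rw [mul_assoc nu nu, ← mul_assoc nu f c, nu_central f, mul_assoc]
      _ = nu * (c * f) := by rw [h4]
  have k1 : (((f * c).1 (ve a) : ruLattice) : RuVec) = gI ^ e • gI ^ eb • vec b := by
    have h4 : ((f * c).1 (ve a) : ruLattice) = f.1 (c.1 (ve a)) := rfl
    have h5 : (c.1 (ve a) : ruLattice) = ⟨gI ^ e • vec b, smul_mem _ (Main.hyp.mem b)⟩ := Subtype.ext hv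
    rw [h4, h5, four_smul f.2 _ _ (Main.hyp.mem b)]
    congr 1
  have k2 : (((f * c).1 (ve a) : ruLattice) : RuVec) = -(gI ^ ea • gI ^ e • vec b) := by
    rw [hfc]
    have h4 : ((nu * (c * f)).1 (ve a) : ruLattice) = -(c.1 (f.1 (ve a))) := comm_apply _
    have h5 : (f.1 (ve a) : ruLattice) = ⟨gI ^ ea • vec a, smul_mem _ (Main.hyp.mem a)⟩ := Subtype.ext hva
    have h6 : ((c.1 (f.1 (ve a)) : ruLattice) : RuVec) = gI ^ ea • gI ^ e • vec b := by
      rw [h5, four_smul c.2 _ _ (Main.hyp.mem a), ← hv]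
      rfl
    rw [h4, ← h6]
    rfl
  have k3 : gI ^ e * gI ^ eb = -(gI ^ ea * gI ^ e) := by
    have h4 : gI ^ e • gI ^ eb • vec b = -(gI ^ ea • gI ^ e • vec b) := k1.symm.trans k2
    rw [smul_smul, smul_smul, ← neg_smul] at h4
    have h5 := congrArg (fun v => herm v (vec b)) h4
    simp only [herm_smul_left] at h5
    exact mul_right_cancel₀ (Main.hyp.herm_self_ne b) h5
  have k4 : gI ^ eb = - gI ^ ea := by
    have h4 : gI ^ e * gI ^ eb = gI ^ e * (- gI ^ ea) := by rw [k3]; ring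
    exact mul_left_cancel₀ (gI_pow_ne_zero e) h4
  have k5 : gI ^ ea * (1 + gI ^ t.2.2) = 0 := by
    have h4 := hr.2
    rw [k4] at h4
    linear_combination h4
  rcases mul_eq_zero.1 k5 with h4 | h4
  · exact gI_pow_ne_zero ea h4
  · exact hr.1 (by linear_combination h4)

/-- powers and conjugates -/
theorem not_fus_pow {x y : List ℕ} (g : List ℕ) (n : ℕ) (hn : Odd n) (hy : ¬ Fus (Wd y)) (hg : g.all (· < 9) = true)
    (hy9 : y.all (· < 9) = true)
    (h : chkRel [g ++ (List.replicate n x).flatten ++ ivw g ++ ivw y] = true) : ¬ Fus (Wd x) := by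
  intro hx
  apply hy
  have h1 : ∀ n : ℕ, Wd (List.replicate n x).flatten = Wd x ^ n := by
    intro n
    induction n with
    | zero =>
      rw [pow_zero]
      exact map_one _
    | succ n ih =>
      rw [List.replicate_succ, List.flatten_cons, Wd_append, ih, pow_succ']
  have h2 := Wd_eq_one h
  rw [Wd_append, Wd_append, Wd_append, Wd_ivw hg, Wd_ivw hy9, h1] at h2
  have h3 : Wd y = Wd g * Wd x ^ n * (Wd g)⁻¹ := (mul_inv_eq_one.1 h2).symm
  rw [h3]
  exact (hx.pow hn).conj _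

/-- elements of odd order -/
theorem not_fus_odd {x : List ℕ} (n : ℕ) (hn : Odd n) (h : chkRel [(List.replicate n x).flatten] = true) :
    ¬ Fus (Wd x) := by
  intro hx
  have h1 : ∀ n : ℕ, Wd (List.replicate n x).flatten = Wd x ^ n := by
    intro n
    induction n with
    | zero =>
      rw [pow_zero]
      exact map_one _
    | succ n ih =>
      rw [List.replicate_succ, List.flatten_cons, Wd_append, ih, pow_succ']
  have h2 := Wd_eq_one h
  rw [h1] at h2
  obtain ⟨f, c, hf, hc⟩ := hx.pow hn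
  rw [h2] at hf
  have h3 := Subgroup.mem_center_iff.1 (ker_qm hf) c
  have h4 : f * nu = f := by
    rw [← hc, h3]; group
  have h5 : nu = 1 := mul_eq_left.1 h4
  have h6 := orderOf_comm
  rw [show (⁅j, k⁆ : fourRu) = nu from rfl, h5, orderOf_one] at h6
  exact absurd h6 (by norm_num)

theorem nf_2A : ¬ Fus (Wd [2]) :=
  not_fus_of 27 103 [
    (103,0,0), (193,10,0), (262,0,0), (278,2,0), (386,0,0), (440,4,0), (481,0,0), (492,2,0), (620,0,0), (643,4,0),
    (676,0,0), (704,2,0), (719,2,0), (786,0,0), (808,2,0), (847,4,0), (861,0,0), (872,0,0), (912,4,0), (941,0,0),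
    (977,4,0), (991,0,0), (995,0,0), (1019,2,0), (1070,0,0), (1154,10,0), (1190,4,0), (1206,0,0), (1290,8,0),
    (1429,0,0), (1476,0,0), (1540,0,0), (1583,0,0), (1692,0,0), (1763,0,0), (1782,0,0), (1797,0,0), (1919,0,0),
    (1946,0,0), (1966,0,0), (1997,0,0), (2011,8,0), (2137,2,0), (2240,4,0), (2246,0,0), (2324,4,0), (2407,0,0),
    (2524,0,0), (2591,0,0), (2636,0,0), (2650,0,0), (2681,2,0), (2684,0,0), (2706,0,0), (2733,0,0), (2887,0,0),
    (2894,2,0), (2930,4,0), (2931,0,0), (2945,2,0), (3048,0,0), (3075,0,0), (3101,0,0), (3123,0,0), (3168,2,0),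
    (3186,0,0), (3215,0,0), (3228,0,0), (3312,4,0), (3356,0,0), (3437,4,0), (3510,2,0), (3533,4,0), (3535,10,0),
    (3560,0,0), (3626,0,0), (3723,0,0), (3742,4,0), (3773,0,0), (4040,0,0)]
    (by decide +kernel) (by decide +kernel) (by decide +kernel)

theorem nf_4A : ¬ Fus (Wd [1]) :=
  not_fus_of 3 306 [
    (306,0,0), (435,0,0), (520,4,0), (551,0,0), (555,0,0), (766,3,0), (803,6,0), (1175,0,0), (1231,0,0),
    (1544,4,0), (1647,0,0), (1781,0,0), (2653,0,0), (2662,4,0), (2841,0,0), (2960,0,0), (3279,0,0), (3355,3,0),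
    (3493,0,0), (3919,0,0)]
    (by decide +kernel) (by decide +kernel) (by decide +kernel)

theorem nf_4B : ¬ Fus (Wd [3,5,6,7,1,1]) :=
  not_fus_of 15 80 [
    (80,0,0), (199,0,0), (211,2,0), (550,1,0), (606,1,0), (805,3,0), (920,1,0), (1278,1,0), (1331,0,0),
    (1653,0,0), (1740,2,0), (1960,0,0), (2210,2,0), (2583,1,0), (2650,0,0), (2745,0,0), (2887,0,0), (3098,1,0),
    (3327,0,0), (3388,0,0)]
    (by decide +kernel) (by decide +kernel) (by decide +kernel)

theorem nf_8B : ¬ Fus (Wd [4,1,1,3,2,5]) :=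
  not_fus_of 3 1718 [
    (793,7,1), (1718,4,0), (3691,6,0), (3808,4,3)]
    (by decide +kernel) (by decide +kernel) (by decide +kernel)

theorem nf_8C : ¬ Fus (Wd [2,5,7,6,6,4]) :=
  not_fus_of 1 72 [
    (72,0,0), (1202,0,0), (1567,0,0), (2231,5,0), (2718,2,0), (3333,0,0)]
    (by decide +kernel) (by decide +kernel) (by decide +kernel)

theorem nf_16 : ¬ Fus (Wd [7,0,5,1]) :=
  not_fus_of 1 263 [
    (263,0,0), (1275,0,3)]
    (by decide +kernel) (by decide +kernel) (by decide +kernel)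

theorem nf_6A : ¬ Fus (Wd [2,4]) :=
  not_fus_pow [] 3 (by decide) nf_2A rfl rfl (by decide +kernel)
theorem nf_10B : ¬ Fus (Wd [5,0,8,2]) :=
  not_fus_pow [] 5 (by decide) nf_2A rfl rfl (by decide +kernel)
theorem nf_12x : ¬ Fus (Wd [8,6]) :=
  not_fus_pow [] 3 (by decide) nf_4A rfl rfl (by decide +kernel)
theorem nf_12y : ¬ Fus (Wd [5,3,8,0]) :=
  not_fus_pow [1,2,3,5,0,4,7,5,1,3,6,2,0] 3 (by decide) nf_4B rfl rfl (by decide +kernel)
theorem nf_20AB : ¬ Fus (Wd [7,7,5]) :=
  not_fus_pow [7,7,5,7,6,7,4,2,1,3,0] 5 (by decide) nf_4A rfl rfl (by decide +kernel)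
theorem nf_20C : ¬ Fus (Wd [3,6,2,5,1]) :=
  not_fus_pow [3,3,5,7,5,7,6,3,0,5] 5 (by decide) nf_4B rfl rfl (by decide +kernel)
theorem nf_24 : ¬ Fus (Wd [3,3,6,5,6]) :=
  not_fus_pow [6,7,6,5,0,3,6,5,7,7,5,1,3,6,2,1] 3 (by decide) nf_8C rfl rfl (by decide +kernel)

theorem nf_1 : ¬ Fus (Wd []) := not_fus_odd 1 (by decide) (by decide +kernel)
theorem nf_3A : ¬ Fus (Wd [8]) := not_fus_odd 3 (by decide) (by decide +kernel)
theorem nf_5A : ¬ Fus (Wd [2,3,6]) := not_fus_odd 5 (by decide) (by decide +kernel)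
theorem nf_5B : ¬ Fus (Wd [8,0,5]) := not_fus_odd 5 (by decide) (by decide +kernel)
theorem nf_7A : ¬ Fus (Wd [3]) := not_fus_odd 7 (by decide) (by decide +kernel)
theorem nf_13A : ¬ Fus (Wd [7,1,2]) := not_fus_odd 13 (by decide) (by decide +kernel)
theorem nf_15A : ¬ Fus (Wd [6,2,4,3]) := not_fus_odd 15 (by decide) (by decide +kernel)
theorem nf_29 : ¬ Fus (Wd [3,2,7,0,5]) := not_fus_odd 29 (by decide) (by decide +kernel)

end Cfsg.Agent.H33.QRu
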