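import Cfsg.Agent.H33.QRu.Tool

/-!
# Commutators of lifts of commuting elements of the Rudvalis group (helper33)

* `pair_eval` : for commuting `c`, `x` in `Ru` with lifts `c~`, `x~`, the scalar `c~ x~ c~⁻¹ x~⁻¹` is read off from the
  Hermitian products of the lines `a, c a, x a, c x a`;
* `fus_of_pair` : the check for `Fus`.
-/

set_option autoImplicit false
set_option maxRecDepth 100000

namespace Cfsg.Agent.H33.QRu

open Cfsg.Spor Cfsg.Agent.RuLat Cfsg.Agent.SporadicB Cfsg.Agent.RuD.Letters Cfsg.Agent.Lib Cfsg.Agent.Lib.BitNet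
open Cfsg.Agent.SporRec.TCUpperCert Cfsg.Agent.H51.RuCover
open scoped commutatorElement

/-- the vector of a line as an element of the lattice -/
noncomputable def ve (a : Fin 4060) : ruLattice := ⟨vec a, Main.hyp.mem a⟩

theorem coe_ve (a : Fin 4060) : ((ve a : ruLattice) : RuVec) = vec a := rfl

/-- the image of a line vector -/
theorem ap_ve (f : fourRu) (a : Fin 4060) :
    ∃ e < 4, ((f.1 (ve a) : ruLattice) : RuVec) = gI ^ e • vec (Main.hyp.hom f a) := Main.hyp.im_spec f a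

theorem gI_pow_star (e : ℕ) : gI ^ e * star (gI ^ e) = 1 := by
  rw [star_pow]; exact gI_pow_mul_star e

theorem herm_smul_vec (e e' : ℕ) (x y : RuVec) : herm (gI ^ e • x) (gI ^ e' • y) = gI ^ e * star (gI ^ e') * herm x y := by
  rw [herm_smul_left, herm_smul_right]; ring

/-- **the commutator of two lifts** -/
theorem pair_eval {c x : fourRu} {a b1 b2 b3 : Fin 4060} (h1 : Main.hyp.hom c a = b1) (h2 : Main.hyp.hom x a = b2)
    (h3 : Main.hyp.hom c b2 = b3) (hcx : Main.hyp.hom (c * x * c⁻¹ * x⁻¹) = 1) {ζ : ℕ} (hζ : ζ < 4)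
    (hH : herm (vec a) (vec b1) * herm (vec b1) (vec b3) = gI ^ ζ * (herm (vec a) (vec b2) * herm (vec b2) (vec b3)))
    (hne : herm (vec a) (vec b2) * herm (vec b2) (vec b3) ≠ 0) :
    c * x * c⁻¹ * x⁻¹ = ⟨iPerm ^ ζ, iPow_mem ζ⟩ := by
  obtain ⟨e, he, hz⟩ := Main.hyp.eq_iPow Prep.span_bl hcx
  have hcx' : c * x = ⟨iPerm ^ e, iPow_mem e⟩ * (x * c) := by rw [← hz]; group
  have h4 : Main.hyp.hom x b1 = b3 := by
    have h5 : Main.hyp.hom (c * x) = Main.hyp.hom (x * c) := by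
      rw [hcx', map_mul, Main.hyp.hom_iPow, one_mul]
    have h6 := Equiv.congr_fun h5 a
    rw [map_mul, map_mul] at h6
    have h7 : Main.hyp.hom c (Main.hyp.hom x a) = Main.hyp.hom x (Main.hyp.hom c a) := h6
    rw [h2, h3, h1] at h7
    exact h7.symm
  obtain ⟨e1, he1, hv1⟩ := ap_ve c a
  obtain ⟨e2, he2, hv2⟩ := ap_ve x a
  obtain ⟨m, hm, hv3⟩ := ap_ve (x * c) a
  have hxc : Main.hyp.hom (x * c) a = b3 := by
    rw [map_mul]
    change Main.hyp.hom x (Main.hyp.hom c a) = b3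
    rw [h1, h4]
  rw [h1] at hv1
  rw [h2] at hv2
  rw [hxc] at hv3
  have hv4 : (((c * x).1 (ve a) : ruLattice) : RuVec) = gI ^ e • gI ^ m • vec b3 := by
    rw [hcx', ← hv3]
    exact coe_iPerm_pow e _
  -- `herm (u, c u) = herm (x u, x c u)`
  have k1 : herm (vec a) (gI ^ e1 • vec b1) = herm (gI ^ e2 • vec b2) (gI ^ m • vec b3) := by
    rw [← hv1, ← hv2, ← hv3, ← coe_ve a]
    exact (four_herm x.2 _ _).symm
  have k2 : herm (vec a) (gI ^ e2 • vec b2) = herm (gI ^ e1 • vec b1) (gI ^ e • gI ^ m • vec b3) := by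
    rw [← hv4, ← hv1, ← hv2, ← coe_ve a]
    exact (four_herm c.2 _ _).symm
  rw [herm_smul_right, herm_smul_vec] at k1
  rw [smul_smul, ← pow_add, herm_smul_right, herm_smul_vec] at k2
  have u1 := gI_pow_star e1
  have u2 := gI_pow_star e2
  have um := gI_pow_star m
  have uem := gI_pow_star (e + m)
  -- the products
  have l1 : herm (vec a) (vec b1) = gI ^ e1 * gI ^ e2 * star (gI ^ m) * herm (vec b2) (vec b3) := by
    linear_combination (gI ^ e1) * k1 - herm (vec a) (vec b1) * u1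
  have l2 : herm (vec a) (vec b2) = gI ^ e2 * gI ^ e1 * star (gI ^ (e + m)) * herm (vec b1) (vec b3) := by
    linear_combination (gI ^ e2) * k2 - herm (vec a) (vec b2) * u2
  have l3 : gI ^ (e + m) * herm (vec a) (vec b2) = gI ^ e2 * gI ^ e1 * herm (vec b1) (vec b3) := by
    rw [l2]
    linear_combination (gI ^ e2 * gI ^ e1 * herm (vec b1) (vec b3)) * uem
  have l4 : herm (vec a) (vec b1) * herm (vec b1) (vec b3) =
      gI ^ e * (herm (vec a) (vec b2) * herm (vec b2) (vec b3)) := by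
    have l5 : gI ^ e * herm (vec a) (vec b2) = gI ^ e1 * gI ^ e2 * star (gI ^ m) * herm (vec b1) (vec b3) := by
      rw [pow_add] at l3
      linear_combination (star (gI ^ m)) * l3 - gI ^ e * herm (vec a) (vec b2) * um
    rw [l1]
    linear_combination (- herm (vec b2) (vec b3)) * l5
  rw [hH] at l4
  have l6 : gI ^ ζ = gI ^ e := mul_right_cancel₀ hne l4
  rw [hz]
  have l7 : ζ = e := gI_pow_inj hζ he l6
  subst l7
  rfl

/-! ### evaluation of the Hermitian products -/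

/-- real part -/
noncomputable def hre (i j : ℕ) : ℤ := ((scaleN i * scaleN j : ℕ) : ℤ) *
  (((BitNetSimple.force (packL 0 i planes) fun C => BitNetSimple.force (packL 0 j planes) fun D => hs tRe 28 C D : ℕ) : ℤ) - 28)

/-- imaginary part -/
noncomputable def him (i j : ℕ) : ℤ := ((scaleN i * scaleN j : ℕ) : ℤ) *
  (((BitNetSimple.force (packL 0 i planes) fun C => BitNetSimple.force (packL 0 j planes) fun D => hs tIm 28 C D : ℕ) : ℤ) - 28)

theorem herm_vec (i j : ℕ) : herm (vec i) (vec j) = ⟨hre i j, him i j⟩ := by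
  have h1 : ∀ i, vec i = decv (packL 0 i planes) (scaleN i) := fun i => by rw [decv_packL, pow_zero, one_smul]
  rw [h1 i, h1 j]
  apply Zsqrtd.ext
  · rw [herm_decv_re]
    simp only [hre, BitNetSimple.force_eq]
  · rw [herm_decv_im]
    simp only [him, BitNetSimple.force_eq]

/-- the numbers -/
noncomputable def chkH (a b1 b2 b3 ζ : ℕ) : Bool :=
  decide (((⟨hre a b1, him a b1⟩ : GaussianInt) * ⟨hre b1 b3, him b1 b3⟩ =
    gI ^ ζ * (⟨hre a b2, him a b2⟩ * ⟨hre b2 b3, him b2 b3⟩)) ∧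
    ((⟨hre a b2, him a b2⟩ : GaussianInt) * ⟨hre b2 b3, him b2 b3⟩ ≠ 0))

/-- the word as a permutation of the lines -/
theorem hom_lift {f : fourRu} {w : List ℕ} (hf : qm f = Wd w) {a : Fin 4060} {b : Fin 4060}
    (h : Nat.beq (evalK w a) b = true) : Main.hyp.hom f a = b := by
  have h1 : (Main.equiv (qm f) : RuOrder.H) = wprod ml w := by rw [hf, Wd, MulEquiv.apply_symm_apply]
  rw [← equiv_qm, h1]
  apply Fin.ext
  rw [evalK_eq]
  exact Nat.eq_of_beq_eq_true h

theorem iPow_two : (⟨iPerm ^ 2, iPow_mem 2⟩ : fourRu) = nu := by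
  apply Subtype.ext
  apply Equiv.ext
  intro v
  rw [comm_apply]
  apply Subtype.ext
  rw [show ((⟨iPerm ^ 2, iPow_mem 2⟩ : fourRu) : Equiv.Perm ruLattice) = iPerm ^ 2 from rfl, coe_iPerm_pow, pow_two,
    gI_mul_self, neg_one_smul]
  rfl

/-- **the check of `Fus`** -/
theorem fus_of_pair (c x : List ℕ) (a b1 b2 b3 : Fin 4060) (hc : c.all (· < 9) = true) (hx : x.all (· < 9) = true)
    (hr : chkRel [c ++ x ++ ivw c ++ ivw x] = true)
    (he : (Nat.beq (evalK c a) b1 && (Nat.beq (evalK x a) b2 && Nat.beq (evalK c b2) b3)) = true)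
    (hH : chkH a b1 b2 b3 2 = true) : Fus (Wd x) := by
  obtain ⟨f, hf⟩ := qm_surj (Wd x)
  obtain ⟨g, hg⟩ := qm_surj (Wd c)
  rw [Bool.and_eq_true, Bool.and_eq_true] at he
  obtain ⟨h1, h2, h3⟩ := he
  have h4 := Wd_eq_one hr
  rw [Wd_append, Wd_append, Wd_append, Wd_ivw hc, Wd_ivw hx, ← hf, ← hg, ← map_inv, ← map_inv, ← map_mul, ← map_mul,
    ← map_mul] at h4
  have h5 : Main.hyp.hom (g * f * g⁻¹ * f⁻¹) = 1 := by
    rw [← equiv_qm, h4, map_one]; rfl
  obtain ⟨h6, h7⟩ := of_decide_eq_true hH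
  have h8 := pair_eval (hom_lift hg h1) (hom_lift hf h2) (hom_lift hg h3) h5 (ζ := 2) (by norm_num)
    (by rw [herm_vec, herm_vec, herm_vec, herm_vec]; exact h6) (by rw [herm_vec, herm_vec]; exact h7)
  rw [iPow_two] at h8
  refine ⟨f, g, hf, ?_⟩
  calc g * f * g⁻¹ = (g * f * g⁻¹ * f⁻¹) * f := by group
    _ = f * nu := by rw [h8, nu_central]

/-- odd powers -/
theorem Fus.pow {x : Ru} (h : Fus x) {n : ℕ} (hn : Odd n) : Fus (x ^ n) := by
  obtain ⟨f, c, rfl, hc⟩ := h
  refine ⟨f ^ n, c, map_pow _ _ _, ?_⟩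
  have h1 : c * f ^ n * c⁻¹ = (c * f * c⁻¹) ^ n := by rw [conj_pow]
  rw [h1, hc, (show Commute f nu from (nu_central f).symm).mul_pow]
  obtain ⟨m, rfl⟩ := hn
  have h2 : nu ^ 2 = 1 := by
    have := pow_orderOf_eq_one nu
    rwa [orderOf_comm] at this
  rw [pow_add nu, pow_mul, h2, one_pow, one_mul, pow_one]

theorem fus_2B : Fus (Wd [0]) :=
  fus_of_pair [8,0,4] [0] 2 383 2553 3601 rfl rfl (by decide +kernel) (by decide +kernel) (by decide +kernel)
theorem fus_4C : Fus (Wd [7,8,5,0,3,6]) :=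
  fus_of_pair [3,6,3,5,3,1,7,0,5,4,1] _ 11 3869 2682 163 rfl rfl (by decide +kernel) (by decide +kernel)
    (by decide +kernel)
theorem fus_4D : Fus (Wd [1,0]) :=
  fus_of_pair [8,0,4] _ 2 383 252 91 rfl rfl (by decide +kernel) (by decide +kernel) (by decide +kernel)
theorem fus_8A : Fus (Wd [5,3]) :=
  fus_of_pair [1,7,5,7,6,3,4,5,0,4,5,2,0] _ 5 3083 2741 2519 rfl rfl (by decide +kernel) (by decide +kernel)
    (by decide +kernel)
theorem fus_10A : Fus (Wd [3,6,0,2]) :=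
  fus_of_pair [8,0,4] _ 16 1994 2330 332 rfl rfl (by decide +kernel) (by decide +kernel) (by decide +kernel)
theorem fus_14 : Fus (Wd [0,3]) :=
  fus_of_pair [8,0,4] _ 2 383 2572 2687 rfl rfl (by decide +kernel) (by decide +kernel) (by decide +kernel)
theorem fus_26 : Fus (Wd [3,5,0]) :=
  fus_of_pair [2,5,3,6,7,5,0,8,0,5,3,1,7,5] _ 2 2176 2147 1833 rfl rfl (by decide +kernel) (by decide +kernel)
    (by decide +kernel)

end Cfsg.Agent.H33.QRu
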